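import Cfsg.Agent.Lib.PG.Model
import Cfsg.Agent.Lib.PG.Iso
import Cfsg.Agent.Lib.PG.Hom

/-! The order of the automorphism group of an explicitly given graph. -/

set_option autoImplicit false

namespace Cfsg.Agent.PG

open Equiv

variable {V : Type*} {Γ : SimpleGraph V} {n : ℕ} {X : ℕ → V} {R : List ℕ}

/-- the vertices are numbered by `X` and `R` lists the rows of the adjacency matrix -/
structure GEnum (Γ : SimpleGraph V) (n : ℕ) (X : ℕ → V) (R : List ℕ) : Prop where
  inj : ∀ i < n, ∀ j < n, X i = X j → i = j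
  surj : ∀ v, ∃ i < n, X i = v
  adj : ∀ i < n, ∀ j < n, Γ.Adj (X i) (X j) ↔ (nthD 0 R i).testBit j = true

theorem GEnum.finite (h : GEnum Γ n X R) : Finite V :=
  Finite.of_surjective (fun i : Fin n => X i) fun v => by
    obtain ⟨i, hi, e⟩ := h.surj v
    exact ⟨⟨i, hi⟩, e⟩

theorem GEnum.finite_aut (h : GEnum Γ n X R) : Finite (Γ ≃g Γ) :=
  have := h.finite
  Finite.of_injective (fun g : Γ ≃g Γ => g.toEquiv) RelIso.toEquiv_injective

theorem GEnum.injOn (h : GEnum Γ n X R) : Set.InjOn X (bset (ivl 0 n)) := fun i hi j hj e =>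
  h.inj i (mem_bset_ivl.1 hi).2 j (mem_bset_ivl.1 hj).2 e

/-- the word preserves adjacency -/
noncomputable def autB (A : List Net) (w : List ℕ) (n : ℕ) (R : List ℕ) : Bool :=
  andB (invB A [w] (ivl 0 n)) <|
    allN n fun i => Nat.beq (papp1 A w (nthD 0 R i)) (nthD 0 R (pre A w i))

theorem GEnum.exists_aut (h : GEnum Γ n X R) {N : ℕ} {A : List Net} (hA : okA N A = true)
    {w : List ℕ} (hw : autB A w n R = true) :
    ∃ g : Γ ≃g Γ, Acts X (bset (ivl 0 n)) g (pp A w) := by
  unfold autB at hw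
  rw [andB_eq, Bool.and_eq_true] at hw
  have h0 : ∀ i, pp A w i ∈ bset (ivl 0 n) ↔ i ∈ bset (ivl 0 n) := fun i => by
    have := invB_spec hA hw.1 _ List.mem_cons_self i
    show (ivl 0 n).testBit (pp A w i) = true ↔ (ivl 0 n).testBit i = true
    rw [this]
  have h1 : ∀ i, pp A w i < n ↔ i < n := fun i => by
    have := h0 i
    simpa [mem_bset_ivl] using this
  have h2 : ∀ i < n, ∀ j, (nthD 0 R (pp A w i)).testBit (pp A w j) = (nthD 0 R i).testBit j := by
    intro i hi j
    have := allN_spec hw.2 _ ((h1 i).2 hi)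
    rw [Nat.beq_eq, pre_eq hA] at this
    rw [← testBit_papp1 hA, this]
    simp
  choose ind hi he using h.surj
  have h3 : ∀ i < n, ind (X i) = i := fun i hi' => h.inj _ (hi _) _ hi' (he _)
  have := h.finite
  have h4 : Function.Injective fun v => X (pp A w (ind v)) := fun v v' e => by
    have := (pp A w).injective (h.inj _ ((h1 _).2 (hi _)) _ ((h1 _).2 (hi _)) e)
    rw [← he v, this, he]
  refine ⟨⟨Equiv.ofBijective _ (Finite.injective_iff_bijective.1 h4), fun {a b} => ?_⟩, h0,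
    fun i hi' => ?_⟩
  · show Γ.Adj (X (pp A w (ind a))) (X (pp A w (ind b))) ↔ _
    rw [h.adj _ ((h1 _).2 (hi _)) _ ((h1 _).2 (hi _)), h2 _ (hi _), ← h.adj _ (hi _) _ (hi _),
      he, he]
  · show X (pp A w (ind (X i))) = _
    rw [h3 i (mem_bset_ivl.1 hi').2]

theorem GEnum.card_ge (h : GEnum Γ n X R) {N : ℕ} {A : List Net} (hA : okA N A = true)
    (hl : A.length ≤ 128) (hw : allL (kgens A 0) (fun w => autB A w n R) = true) {l : ℕ}
    {lv : List (ℕ × List (List ℕ) × ℕ × ℕ)} (hlb : lbB A l 0 lv [] = true)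
    (hB : ∀ q ∈ lv, q.1 < n) : (lv.map fun q => q.2.2.2).prod ≤ Nat.card (Γ ≃g Γ) := by
  have := h.finite_aut
  have h1 : ∀ σ ∈ K A 0, ∃ g : Γ ≃g Γ, Acts X (bset (ivl 0 n)) g σ :=
    acts_K_of_gens fun j _ hj => by
      have := h.exists_aut hA (allL_spec hw [gw j] (List.mem_map.2 ⟨j, by
        rw [List.mem_range'_1]; omega, rfl⟩))
      rwa [pp_cons, pp_nil, mul_one, sp_gw A (by omega)] at this
  have := card_ge_of_lb hA (H := (⊤ : Subgroup (Γ ≃g Γ)))
    (fun σ hσ => (h1 σ hσ).imp fun g hg => ⟨Subgroup.mem_top g, hg⟩) h.injOn hlb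
    fun q hq => mem_bset_ivl.2 ⟨Nat.zero_le _, hB q hq⟩
  rwa [Subgroup.card_top] at this

/-- the vertices that look like `v` from the vertices in `F` -/
noncomputable def candG (n : ℕ) (R F : List ℕ) (v : ℕ) : ℕ :=
  List.rec (motive := fun _ => ℕ) (ivl 0 n) (fun f _ ih => force (nthD 0 R f) fun r =>
    Nat.land (iteB (bit r v) r (Nat.xor (Nat.lor r (Nat.shiftLeft 1 f)) (ivl 0 n))) ih) F

/-- the automorphisms fixing the listed vertices -/
def fixG (Γ : SimpleGraph V) (X : ℕ → V) (F : List ℕ) : Subgroup (Γ ≃g Γ) where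
  carrier := {g | ∀ f ∈ F, g • X f = X f}
  one_mem' := fun _ _ => one_smul _ _
  mul_mem' := fun ha hb f hf => by rw [mul_smul, hb f hf, ha f hf]
  inv_mem' := fun ha f hf => inv_smul_eq_iff.2 (ha f hf).symm

theorem GEnum.mem_cand (h : GEnum Γ n X R) {F : List ℕ} (hF : ∀ f ∈ F, f < n) {v : ℕ} (hv : v < n)
    (hvF : v ∉ F) {g : Γ ≃g Γ} (hg : g ∈ fixG Γ X F) {u : ℕ} (hu : u < n) (e : g • X v = X u) :
    (candG n R F v).testBit u = true := by
  have hi : (ivl 0 n).testBit u = true := (testBit_ivl 0 n u).2 ⟨Nat.zero_le _, hu⟩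
  induction F with
  | nil => exact hi
  | cons f F ih =>
    have hf := hF f List.mem_cons_self
    have e1 : candG n R (f :: F) v = (iteB (bit (nthD 0 R f) v) (nthD 0 R f)
      ((nthD 0 R f ||| 1 <<< f) ^^^ ivl 0 n)) &&& candG n R F v :=
      force_eq (nthD 0 R f) fun r => Nat.land (iteB (bit r v) r
        (Nat.xor (Nat.lor r (Nat.shiftLeft 1 f)) (ivl 0 n))) (candG n R F v)
    rw [e1, Nat.testBit_and, ih (fun a ha => hF a (List.mem_cons_of_mem _ ha))
      (fun ha => hvF (List.mem_cons_of_mem _ ha)) fun a ha => hg a (List.mem_cons_of_mem _ ha),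
      Bool.and_true, bit_eq]
    have h1 : g • X f = X f := hg f List.mem_cons_self
    have h2 : (nthD 0 R f).testBit u = (nthD 0 R f).testBit v := by
      rw [Bool.eq_iff_iff, ← h.adj f hf u hu, ← h.adj f hf v hv, ← e]
      conv_lhs => rw [← h1]
      exact g.map_rel_iff
    have h3 : f ≠ u := by
      rintro rfl
      rw [← h1, smul_left_cancel_iff] at e
      exact hvF (h.inj _ hv _ hf e ▸ List.mem_cons_self)
    cases hb : (nthD 0 R f).testBit v
    · rw [iteB_false, Nat.testBit_xor, Nat.testBit_or, h2, hb, hi, Nat.one_shiftLeft,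
        Nat.testBit_two_pow]
      simp [h3]
    · rw [iteB_true, h2, hb]

/-- the sizes of the candidate sets along an ordering of the vertices -/
noncomputable def ubB (n : ℕ) (R : List ℕ) (l : ℕ) (ord : List (ℕ × ℕ)) : List ℕ → Bool :=
  List.rec (motive := fun _ => List ℕ → Bool) (fun _ => true)
    (fun q _ ih F => andB (cardB l (candG n R F q.1) q.2) (ih (q.1 :: F))) ord

theorem GEnum.ub_aux (h : GEnum Γ n X R) {l : ℕ} {ord : List (ℕ × ℕ)} {F : List ℕ}
    (hF : ∀ f ∈ F, f < n) (ho : ∀ q ∈ ord, q.1 < n) (hd : ((ord.map Prod.fst).reverse ++ F).Nodup)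
    (hb : ubB n R l ord F = true) :
    Nat.card (fixG Γ X F) ≤
      (ord.map Prod.snd).prod * Nat.card (fixG Γ X ((ord.map Prod.fst).reverse ++ F)) := by
  have := h.finite_aut
  induction ord generalizing F with
  | nil => simp
  | cons q ord ih =>
    have hb' : andB (cardB l (candG n R F q.1) q.2) (ubB n R l ord (q.1 :: F)) = true := hb
    rw [andB_eq, Bool.and_eq_true] at hb'
    have hq := ho q List.mem_cons_self
    simp only [List.map_cons, List.reverse_cons, List.append_assoc, List.singleton_append] at hd ⊢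
    have h1 := ih (F := q.1 :: F) (fun f hf => by
      rcases List.mem_cons.1 hf with rfl | hf
      · exact hq
      · exact hF f hf) (fun a ha => ho a (List.mem_cons_of_mem _ ha)) hd hb'.2
    have h2 : fixG Γ X F ⊓ MulAction.stabilizer _ (X q.1) = fixG Γ X (q.1 :: F) := by
      ext g
      exact ⟨fun hg f hf => by
        rcases List.mem_cons.1 hf with rfl | hf
        · exact hg.2
        · exact hg.1 f hf,
        fun hg => ⟨fun f hf => hg f (List.mem_cons_of_mem _ hf), hg _ List.mem_cons_self⟩⟩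
    rw [card_eq_orbit_mul' _ (X q.1), h2, List.prod_cons, mul_assoc]
    refine Nat.mul_le_mul ?_ h1
    rw [← cardB_spec hb'.1]
    have hfin : (bset (candG n R F q.1)).Finite :=
      (Set.finite_lt_nat (candG n R F q.1)).subset fun i hi => by
        have := Nat.ge_two_pow_of_testBit hi
        exact lt_of_lt_of_le Nat.lt_two_pow_self this
    refine le_trans (Set.ncard_le_ncard ?_ (hfin.image X)) (Set.ncard_image_le hfin)
    rintro z ⟨g, hg, rfl⟩
    obtain ⟨u, hu, e⟩ := h.surj (g • X q.1)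
    exact ⟨u, h.mem_cand hF hq (List.nodup_cons.1 (List.nodup_append.1 hd).2.1).1 hg hu e.symm, e⟩

theorem GEnum.card_le (h : GEnum Γ n X R) {l : ℕ} {ord : List (ℕ × ℕ)}
    (ho : ∀ q ∈ ord, q.1 < n) (hd : (ord.map Prod.fst).Nodup) (ha : ∀ i < n, i ∈ ord.map Prod.fst)
    (hb : ubB n R l ord [] = true) : Nat.card (Γ ≃g Γ) ≤ (ord.map Prod.snd).prod := by
  have h1 := h.ub_aux (F := []) (by simp) ho (by simpa using hd) hb
  have h2 : fixG Γ X [] = ⊤ := eq_top_iff.2 fun g _ f hf => by cases hf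
  have h3 : fixG Γ X ((ord.map Prod.fst).reverse ++ []) = ⊥ := by
    rw [eq_bot_iff]
    intro g hg
    rw [Subgroup.mem_bot]
    ext v
    obtain ⟨i, hi, rfl⟩ := h.surj v
    exact hg i (by simpa using ha i hi)
  rwa [h2, h3, Subgroup.card_top, Subgroup.card_bot, mul_one] at h1

end Cfsg.Agent.PG
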